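import Cfsg.Agent.Bimonster54.Chunks

/-!
Certificate data for the table `A1`.
-/

set_option autoImplicit false
set_option maxRecDepth 40000
set_option maxHeartbeats 0

namespace CfsgLib.Bimonster54.A1

/-- Facts. -/
def T : Tree := (.leaf 0x3000040000)

/-- Relators. -/
def rels : List (List ℕ) :=
  [[2, 2]]

/-- Sheet. -/
def S : Sheet := ⟨T, rels, plain⟩

/-- Justifications, part 0. -/
def cs0 : List ℕ := []

theorem cs0_ok : checkFrom S 1 cs0 = true := by decide +kernel

/-- All justifications. -/
def cs : List ℕ := cs0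

theorem cs_ok : checkFrom S (1 + 0) cs = true :=
  cs0_ok

theorem base_ok : allFrom (baseAt S 1 0) 0 (1 + 0) = true := by decide +kernel

theorem seed_ok : allFrom (seedAt S []) 1 0 = true := by decide +kernel

/-- Tracked codes. -/
def pts : Tree := (.leaf 0x490000000000000037)

theorem pts_ok : allFrom (ptAt S pts) 0 1 = true := by decide +kernel

/-- The separating set. -/
def X : List ℕ := [27]

theorem sep_ok : allFrom (sepAt pts X) 0 (1 + 1) = true := by decide +kernel

theorem X_ok : (X.all fun s => Nat.blt s 6561 && List.all [] fun x => memN (stepN x s) X) = true := by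
  decide +kernel

theorem q_ok : (memN 27 X && Nat.beq (code pts 0) 27 && live pts 0) = true := by decide +kernel

/-- Closing walks, part 0. -/
def fin0 : List (List ℕ) := [[0x1], [0x101]]

theorem fin0_ok : closeFrom S pts 1 1 [2] 0 fin0 = true := by decide +kernel

/-- All closing walks. -/
def fin : List (List ℕ) := fin0

theorem cs_len : 1 + 0 + cs.length = 1 := by decide +kernel

theorem fin_len : fin.length = 1 + 1 := by decide +kernel

theorem fin_ok : closeFrom S pts 1 (1 + 0 + cs.length) [2] 0 fin = true := by
  rw [cs_len]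
  exact fin0_ok

/-- Faithfulness climbs one level. -/
theorem climb {G : Type*} [Group G] {γ : ℕ → G} {φ : G →* Equiv.Perm V}
    (hγ : ∀ x, γ x * γ x = 1) (hφ : ∀ x, φ (γ x) = mperm x)
    (hrel : ∀ r ∈ rels, evW γ r = 1) (hf : FaithfulOn φ γ []) :
    FaithfulOn φ γ [2] :=
  level (S := S) (pts := pts) (q := 27) (X := X) (D := 1) (ns := 0) (cs := cs) (fin := fin)
    rfl hγ hφ hrel hf base_ok seed_ok cs_ok pts_ok sep_ok X_ok q_ok fin_len fin_ok

end CfsgLib.Bimonster54.A1
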