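import Cfsg.Agent.Bimonster54.Chunks

/-!
Certificate data for the table `A2`.
-/

set_option autoImplicit false
set_option maxRecDepth 40000
set_option maxHeartbeats 0

namespace CfsgLib.Bimonster54.A2

/-- Facts. -/
def T : Tree := (.leaf 0x2000080002000000300000000000000030000800010000002000040000)

/-- Relators. -/
def rels : List (List ℕ) :=
  [[1, 1],
   [2, 2],
   [1, 2, 1, 2, 1, 2]]

/-- Sheet. -/
def S : Sheet := ⟨T, rels, plain⟩

/-- Justifications, part 0. -/
def cs0 : List ℕ := [0x20000000400010003005000003]

theorem cs0_ok : checkFrom S 3 cs0 = true := by decide +kernel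

/-- All justifications. -/
def cs : List ℕ := cs0

theorem cs_ok : checkFrom S (2 + 1) cs = true :=
  cs0_ok

theorem base_ok : allFrom (baseAt S 2 1) 0 (2 + 1) = true := by decide +kernel

theorem seed_ok : allFrom (seedAt S [2]) 2 1 = true := by decide +kernel

/-- Tracked codes. -/
def pts : Tree := (.leaf 0x970000000000000085000000000000007f)

theorem pts_ok : allFrom (ptAt S pts) 0 2 = true := by decide +kernel

/-- The separating set. -/
def X : List ℕ := [63]

theorem sep_ok : allFrom (sepAt pts X) 0 (2 + 1) = true := by decide +kernel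

theorem X_ok : (X.all fun s => Nat.blt s 6561 && List.all [2] fun x => memN (stepN x s) X) = true := by
  decide +kernel

theorem q_ok : (memN 63 X && Nat.beq (code pts 0) 63 && live pts 0) = true := by decide +kernel

/-- Closing walks, part 0. -/
def fin0 : List (List ℕ) := [[0x1, 0x401], [0x101, 0x201], [0x601, 0x301]]

theorem fin0_ok : closeFrom S pts 2 4 [1, 2] 0 fin0 = true := by decide +kernel

/-- All closing walks. -/
def fin : List (List ℕ) := fin0

theorem cs_len : 2 + 1 + cs.length = 4 := by decide +kernel

theorem fin_len : fin.length = 2 + 1 := by decide +kernel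

theorem fin_ok : closeFrom S pts 2 (2 + 1 + cs.length) [1, 2] 0 fin = true := by
  rw [cs_len]
  exact fin0_ok

/-- Faithfulness climbs one level. -/
theorem climb {G : Type*} [Group G] {γ : ℕ → G} {φ : G →* Equiv.Perm V}
    (hγ : ∀ x, γ x * γ x = 1) (hφ : ∀ x, φ (γ x) = mperm x)
    (hrel : ∀ r ∈ rels, evW γ r = 1) (hf : FaithfulOn φ γ [2]) :
    FaithfulOn φ γ [1, 2] :=
  level (S := S) (pts := pts) (q := 63) (X := X) (D := 2) (ns := 1) (cs := cs) (fin := fin)
    rfl hγ hφ hrel hf base_ok seed_ok cs_ok pts_ok sep_ok X_ok q_ok fin_len fin_ok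

end CfsgLib.Bimonster54.A2
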