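import Cfsg.Agent.Bimonster54.Chunks

/-!
Certificate data for the table `A3`.
-/

set_option autoImplicit false
set_option maxRecDepth 40000
set_option maxHeartbeats 0

namespace CfsgLib.Bimonster54.A3

/-- Facts. -/
def T : Tree := (.leaf 0x10000c000300000020000c0003000000300004000100000010000800020000003000000000000000200000000000000030000c000200000020000800010000001000040000)

/-- Relators. -/
def rels : List (List ℕ) :=
  [[0, 0],
   [1, 1],
   [2, 2],
   [0, 1, 0, 1, 0, 1],
   [0, 2, 0, 2],
   [1, 2, 1, 2, 1, 2]]

/-- Sheet. -/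
def S : Sheet := ⟨T, rels, plain⟩

/-- Justifications, part 0. -/
def cs0 : List ℕ := [0x20000000600010003005000004, 0x80001003000105, 0x40002000c00030005005000006, 0x4000b0005003000005]

theorem cs0_ok : checkFrom S 5 cs0 = true := by decide +kernel

/-- All justifications. -/
def cs : List ℕ := cs0

theorem cs_ok : checkFrom S (3 + 2) cs = true :=
  cs0_ok

theorem base_ok : allFrom (baseAt S 3 2) 0 (3 + 2) = true := by decide +kernel

theorem seed_ok : allFrom (seedAt S [1, 2]) 3 2 = true := by decide +kernel

/-- Tracked codes. -/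
def pts : Tree := (.leaf 0x1131000000000000111f00000000000011190000000000001117)

theorem pts_ok : allFrom (ptAt S pts) 0 3 = true := by decide +kernel

/-- The separating set. -/
def X : List ℕ := [2187]

theorem sep_ok : allFrom (sepAt pts X) 0 (3 + 1) = true := by decide +kernel

theorem X_ok : (X.all fun s => Nat.blt s 6561 && List.all [1, 2] fun x => memN (stepN x s) X) = true := by
  decide +kernel

theorem q_ok : (memN 2187 X && Nat.beq (code pts 0) 2187 && live pts 0) = true := by decide +kernel

/-- Closing walks, part 0. -/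
def fin0 : List (List ℕ) := [[0x1, 0x601, 0x801], [0x101, 0x201, 0xc01], [0xa01, 0x301, 0x401], [0x1001, 0xe01, 0x501]]

theorem fin0_ok : closeFrom S pts 3 9 [0, 1, 2] 0 fin0 = true := by decide +kernel

/-- All closing walks. -/
def fin : List (List ℕ) := fin0

theorem cs_len : 3 + 2 + cs.length = 9 := by decide +kernel

theorem fin_len : fin.length = 3 + 1 := by decide +kernel

theorem fin_ok : closeFrom S pts 3 (3 + 2 + cs.length) [0, 1, 2] 0 fin = true := by
  rw [cs_len]
  exact fin0_ok

/-- Faithfulness climbs one level. -/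
theorem climb {G : Type*} [Group G] {γ : ℕ → G} {φ : G →* Equiv.Perm V}
    (hγ : ∀ x, γ x * γ x = 1) (hφ : ∀ x, φ (γ x) = mperm x)
    (hrel : ∀ r ∈ rels, evW γ r = 1) (hf : FaithfulOn φ γ [1, 2]) :
    FaithfulOn φ γ [0, 1, 2] :=
  level (S := S) (pts := pts) (q := 2187) (X := X) (D := 3) (ns := 2) (cs := cs) (fin := fin)
    rfl hγ hφ hrel hf base_ok seed_ok cs_ok pts_ok sep_ok X_ok q_ok fin_len fin_ok

end CfsgLib.Bimonster54.A3
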