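import Cfsg.Agent.Bimonster54.Chunks

/-!
Certificate data for the table `A4`.
-/

set_option autoImplicit false
set_option maxRecDepth 40000
set_option maxHeartbeats 0

namespace CfsgLib.Bimonster54.A4

/-- Facts. -/
def T : Tree := (.leaf 0x6000100004000000100010000400000060000c00030000002000100004000000300008000200000010000c0003000000300004000100000020000400010000006000080002000000300000000000000020000000000000001000000000000000300010000300000020000c000200000010000800010000006000040000)

/-- Relators. -/
def rels : List (List ℕ) :=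
  [[0, 0],
   [1, 1],
   [2, 2],
   [5, 5],
   [0, 1, 0, 1, 0, 1],
   [0, 2, 0, 2],
   [0, 5, 0, 5, 0, 5],
   [1, 2, 1, 2, 1, 2],
   [1, 5, 1, 5],
   [2, 5, 2, 5]]

/-- Sheet. -/
def S : Sheet := ⟨T, rels, plain⟩

/-- Justifications, part 0. -/
def cs0 : List ℕ := [0x20000000900010003005000107, 0xb0001003000009, 0xd000100300000a, 0x40002001000030005005000005, 0x200120003003000106, 0x60004001600050007005000008, 0x4000e0005003000109, 0x600150007003000006, 0x6001a000700300010a]

theorem cs0_ok : checkFrom S 7 cs0 = true := by decide +kernel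

/-- All justifications. -/
def cs : List ℕ := cs0

theorem cs_ok : checkFrom S (4 + 3) cs = true :=
  cs0_ok

theorem base_ok : allFrom (baseAt S 4 3) 0 (4 + 3) = true := by decide +kernel

theorem seed_ok : allFrom (seedAt S [0, 1, 2]) 4 3 = true := by decide +kernel

/-- Tracked codes. -/
def pts : Tree := (.leaf 0x7b300000000000007a1000000000000079b000000000000079900000000000005b3)

theorem pts_ok : allFrom (ptAt S pts) 0 4 = true := by decide +kernel

/-- The separating set. -/
def X : List ℕ := [729]

theorem sep_ok : allFrom (sepAt pts X) 0 (4 + 1) = true := by decide +kernel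

theorem X_ok : (X.all fun s => Nat.blt s 6561 && List.all [0, 1, 2] fun x => memN (stepN x s) X) = true := by
  decide +kernel

theorem q_ok : (memN 729 X && Nat.beq (code pts 0) 729 && live pts 0) = true := by decide +kernel

/-- Closing walks, part 0. -/
def fin0 : List (List ℕ) := [[0x801, 0xa01, 0xc01, 0x1], [0x201, 0x1001, 0x1201, 0x101], [0x301, 0x401, 0x1601, 0xe01], [0x1401, 0x501, 0x601, 0x1a01], [0x1c01, 0x1801, 0x701, 0x1e01]]

theorem fin0_ok : closeFrom S pts 4 16 [0, 1, 2, 5] 0 fin0 = true := by decide +kernel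

/-- All closing walks. -/
def fin : List (List ℕ) := fin0

theorem cs_len : 4 + 3 + cs.length = 16 := by decide +kernel

theorem fin_len : fin.length = 4 + 1 := by decide +kernel

theorem fin_ok : closeFrom S pts 4 (4 + 3 + cs.length) [0, 1, 2, 5] 0 fin = true := by
  rw [cs_len]
  exact fin0_ok

/-- Faithfulness climbs one level. -/
theorem climb {G : Type*} [Group G] {γ : ℕ → G} {φ : G →* Equiv.Perm V}
    (hγ : ∀ x, γ x * γ x = 1) (hφ : ∀ x, φ (γ x) = mperm x)
    (hrel : ∀ r ∈ rels, evW γ r = 1) (hf : FaithfulOn φ γ [0, 1, 2]) :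
    FaithfulOn φ γ [0, 1, 2, 5] :=
  level (S := S) (pts := pts) (q := 729) (X := X) (D := 4) (ns := 3) (cs := cs) (fin := fin)
    rfl hγ hφ hrel hf base_ok seed_ok cs_ok pts_ok sep_ok X_ok q_ok fin_len fin_ok

end CfsgLib.Bimonster54.A4
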